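import Cfsg.Agent.H0.EHS.D
import Cfsg.Agent.H0.MHSp.Main
set_option maxRecDepth 100000
set_option Elab.async false
set_option linter.unusedSectionVars false
namespace H0.EHS
open H0 BN 
theorem defs_ok : DefsOK R.p defs 11 := defsOK_of_chk c2
universe u
variable {G : Type u} [Group G] [Finite G] (m0 : Model G) (h0 : m0.R = H6M.MHS.R)
noncomputable def m : Model G := m0.ext (lg := nat_lit 7) (N := nat_lit 128) (l := H6M.MHS.nl) h0 nl nl_ok 11 rfl defs defs_ok (by decide +kernel)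
theorem mR : (m m0 h0).R = R := rfl
variable (hb : m0.pst [3, 18, 2, 1, 0] = ⊥) (hc : Nat.card G = 44352000)
include h0 hb hc
theorem base : (m m0 h0).pst [3, 18, 2, 1, 0] = ⊥ := hb
omit hb hc in
theorem geq {x : ℕ} (h : x < 11) : (m m0 h0).g x = m0.g x := m0.ext_g h0 _ _ _ _ _ _ _ h
theorem A_iso : Nonempty (PG 12 H0.MHSp.B ≃* gen (m m0 h0).g ((lets 12).map (sh 11))) :=
  iso_emb _ 11 (all_take_done (all_take_step (all_take_zero _ ((H0.MHSp.B.map (sh 11)).map fun r => (r, ([] : List ℕ)))) ((m m0 h0).pairs_of (base m0 h0 hb hc) (Model.via _ (mR m0 h0) (fun R => pairsB R [3, 18, 2, 1, 0] ((((H0.MHSp.B.map (sh 11)).map fun r => (r, ([] : List ℕ))).drop 0).take 157)) c0))) (by decide +kernel)) (H0.MHSp.simple (Pres.pg _ _)) ((m m0 h0).ne_of_neB (Model.via _ (mR m0 h0) (fun R => neB R [11] [] 0 14 0) c1)) (by decide +kernel)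
end H0.EHS
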